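/-
Elementary facts on root involutions: products with odd partners, isolated vertices.
-/
import Cfsg.Prelude.Def_RootSubgroups
import Cfsg.Agent.Components.BaerSuzuki
import Cfsg.Agent.Core.Cores

set_option linter.unusedSectionVars false
set_option linter.style.haveILetI false

namespace Cfsg.Agent.TwoGroups.RootInv

open Cfsg

variable {G : Type*} [Group G] {D : Set G}

theorem mul_self (hD : IsRootInvolutionSet D) {d : G} (hd : d ∈ D) : d * d = 1 := by
  have h := pow_orderOf_eq_one d
  rwa [hD.orderOf_eq d hd, pow_two] at h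

theorem inv_eq (hD : IsRootInvolutionSet D) {d : G} (hd : d ∈ D) : d⁻¹ = d :=
  inv_eq_of_mul_eq_one_right (mul_self hD hd)

theorem adj_symm {a b : G} (h : OddAdj D a b) : OddAdj D b a := by
  refine ⟨h.2.1, h.1, Ne.symm h.2.2.1, ?_⟩
  have e : (MulAut.conj a) (b * a) = a * b := by simp [mul_assoc]
  rw [← (MulAut.conj a).orderOf_eq (b * a), e]
  exact h.2.2.2

theorem adj_conj (hD : IsRootInvolutionSet D) {a b : G} (h : OddAdj D a b) (g : G) :
    OddAdj D (g * a * g⁻¹) (g * b * g⁻¹) := by
  refine ⟨hD.conj_mem a h.1 g, hD.conj_mem b h.2.1 g, fun e => h.2.2.1 ?_, ?_⟩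
  · simpa using e
  · rw [show g * a * g⁻¹ * (g * b * g⁻¹) = MulAut.conj g (a * b) by simp [mul_assoc], MulEquiv.orderOf_eq]
    exact h.2.2.2

theorem not_commute_of_adj (hD : IsRootInvolutionSet D) {a b : G} (h : OddAdj D a b) : a * b ≠ b * a := by
  intro hc
  apply h.2.2.1
  have h2 : (a * b) ^ 2 = 1 := by
    rw [(show Commute a b from hc).mul_pow, pow_two, pow_two, mul_self hD h.1, mul_self hD h.2.1, one_mul]
  have h1 : orderOf (a * b) = 1 :=
    Nat.eq_one_of_dvd_coprimes (Nat.coprime_two_right.mpr h.2.2.2) dvd_rfl (orderOf_dvd_of_pow_eq_one h2)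
  rw [orderOf_eq_one_iff, mul_eq_one_iff_eq_inv, inv_eq hD h.2.1] at h1
  exact h1

theorem not_commute_partner (hD : IsRootInvolutionSet D) {a x y : G} (hax : OddAdj D a x)
    (hy : y ∈ D) (hc : y * a = a * y) (hya : y * a ∈ D) : y * x ≠ x * y := by
  intro hyx
  have hy2 : orderOf y = 2 := hD.orderOf_eq y hy
  have hcm : Commute y (a * x) := (show Commute y a from hc).mul_right hyx
  have ho : orderOf (y * a * x) = 2 * orderOf (a * x) := by
    rw [mul_assoc, hcm.orderOf_mul_eq_mul_orderOf_of_coprime (by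
      rw [hy2]; exact Nat.coprime_two_left.mpr hax.2.2.2), hy2]
  obtain ⟨m, hm⟩ := hax.2.2.2
  have hm0 : m ≠ 0 := by
    rintro rfl
    rw [mul_zero, zero_add, orderOf_eq_one_iff, mul_eq_one_iff_eq_inv, inv_eq hD hax.2.1] at hm
    exact hax.2.2.1 hm
  rcases hD.pair _ hya x hax.2.1 with h | h | h
  · have h2 : (y * a * x) ^ 2 = 1 := by
      rw [(show Commute (y * a) x from h).mul_pow, pow_two, pow_two, mul_self hD hya, mul_self hD hax.2.1, one_mul]
    have := Nat.le_of_dvd two_pos (orderOf_dvd_of_pow_eq_one h2)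
    omega
  · rw [ho] at h
    exact absurd h (by simp [parity_simps])
  · have := h.1
    omega

/-- If `y` commutes with `a` and `ya ∈ D`, an odd partner of `a` is an odd partner of `y` or of `ya`. -/
theorem adj_or_adj (hD : IsRootInvolutionSet D) {a x y : G} (hax : OddAdj D a x)
    (hy : y ∈ D) (hc : y * a = a * y) (hya : y * a ∈ D) : OddAdj D y x ∨ OddAdj D (y * a) x := by
  have hc' : y * a * a = a * (y * a) := by rw [← mul_assoc, ← hc]
  have hn1 := not_commute_partner hD hax hy hc hya
  have hn2 : y * a * x ≠ x * (y * a) :=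
    not_commute_partner hD hax hya hc' (by rw [mul_assoc, mul_self hD hax.1, mul_one]; exact hy)
  rcases hD.pair y hy x hax.2.1 with h | h | h
  · exact absurd h hn1
  · exact Or.inl ⟨hy, hax.2.1, fun e => hn1 (by rw [e]), h⟩
  rcases hD.pair _ hya x hax.2.1 with h' | h' | h'
  · exact absurd h' hn2
  · exact Or.inr ⟨hya, hax.2.1, fun e => hn2 (by rw [e]), h'⟩
  exfalso
  have key : ∀ z ∈ D, orderOf (z * x) = 4 → Commute (z * x * z) x := by
    intro z hz hz4
    have h4 : (z * x) * (z * x) * ((z * x) * (z * x)) = 1 := by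
      have := pow_orderOf_eq_one (z * x)
      rw [hz4] at this
      calc (z * x) * (z * x) * ((z * x) * (z * x)) = (z * x) ^ 4 := by rw [show (4 : ℕ) = 2 + 2 from rfl, pow_add, pow_two]
        _ = 1 := this
    have h5 := eq_inv_of_mul_eq_one_left h4
    show z * x * z * x = x * (z * x * z)
    calc z * x * z * x = (z * x) * (z * x) := by group
      _ = ((z * x) * (z * x))⁻¹ := h5
      _ = x⁻¹ * z⁻¹ * x⁻¹ * z⁻¹ := by group
      _ = x * (z * x * z) := by rw [inv_eq hD hz, inv_eq hD hax.2.1]; group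
  have c1 : Commute (y * x * y) x := key y hy h.1
  have c2 : Commute (y * a * x * (y * a)) x := key _ hya h'.1
  have ha2 := mul_self hD hax.1
  have c3 : Commute (y * x * y) (a * x * a) := by
    have e : y * a * x * (y * a) = a * (y * x * y) * a := by
      calc y * a * x * (y * a) = (y * a) * x * (y * a) := by group
        _ = (a * y) * x * (y * a) := by rw [hc]
        _ = _ := by group
    rw [e] at c2
    show y * x * y * (a * x * a) = a * x * a * (y * x * y)
    calc y * x * y * (a * x * a) = (a * a) * (y * x * y) * (a * x * a) := by rw [ha2, one_mul]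
      _ = a * ((a * (y * x * y) * a) * x) * a := by group
      _ = a * (x * (a * (y * x * y) * a)) * a := by rw [c2.eq]
      _ = a * x * a * (y * x * y) * (a * a) := by group
      _ = _ := by rw [ha2, mul_one]
  have c4 : Commute (y * x * y) ((x * a) ^ 2) := by
    rw [show (x * a) ^ 2 = x * (a * x * a) by rw [pow_two]; group]
    exact c1.mul_right c3
  have hxa : Odd (orderOf (x * a)) := (adj_symm hax).2.2.2
  obtain ⟨m, hm⟩ := hxa
  have c5 : Commute (y * x * y) (x * a) := by
    have e : x * a = ((x * a) ^ 2) ^ (m + 1) := by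
      rw [← pow_mul, show 2 * (m + 1) = orderOf (x * a) + 1 by omega, pow_succ, pow_orderOf_eq_one, one_mul]
    rw [e]
    exact c4.pow_right _
  have c6 : Commute (y * x * y) a := by
    have := c1.mul_right c5
    rwa [← mul_assoc, mul_self hD hax.2.1, one_mul] at this
  apply not_commute_of_adj hD hax
  have hy2 := mul_self hD hy
  calc a * x = (y * y) * a * x * (y * y) := by rw [hy2, one_mul, mul_one]
    _ = y * (y * a) * x * y * y := by group
    _ = y * (a * (y * x * y)) * y := by rw [hc]; group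
    _ = y * ((y * x * y) * a) * y := by rw [c6.eq]
    _ = (y * y) * x * (y * a) * y := by group
    _ = (y * y) * x * (a * y) * y := by rw [hc]
    _ = (y * y) * x * a * (y * y) := by group
    _ = x * a := by rw [hy2, one_mul, mul_one]

theorem comp_symm {a b : G} (h : Relation.ReflTransGen (OddAdj D) a b) :
    Relation.ReflTransGen (OddAdj D) b a := by
  induction h with
  | refl => exact Relation.ReflTransGen.refl
  | tail _ hbc ih => exact Relation.ReflTransGen.head (adj_symm hbc) ih

/-- The product partners of a non-isolated vertex lie in its component or are isolated. -/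
theorem partner_comp (hD : IsRootInvolutionSet D) {a x y : G} (hax : OddAdj D a x)
    (hy : y ∈ D) (hc : y * a = a * y) (hya : y * a ∈ D) :
    Relation.ReflTransGen (OddAdj D) a y ∨ IsIsolatedElem (OddAdj D) D y := by
  by_cases hi : IsIsolatedElem (OddAdj D) D y
  · exact Or.inr hi
  left
  rcases adj_or_adj hD hax hy hc hya with h | h
  · exact (Relation.ReflTransGen.single hax).tail (adj_symm h)
  have h1 : Relation.ReflTransGen (OddAdj D) a (y * a) := (Relation.ReflTransGen.single hax).tail (adj_symm h)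
  obtain ⟨z, hz⟩ : ∃ z, OddAdj D y z := by
    by_contra hcon
    push Not at hcon
    exact hi ⟨hy, fun b => ⟨hcon b, fun hb => hcon b (adj_symm hb)⟩⟩
  rcases adj_or_adj hD hz hax.1 hc.symm (by rwa [← hc]) with h2 | h2
  · exact (Relation.ReflTransGen.single h2).tail (adj_symm hz)
  · rw [← hc] at h2
    exact (h1.tail h2).tail (adj_symm hz)

theorem pgroup_pair [Finite G] (hD : IsRootInvolutionSet D) {w w' : G} (hw : w ∈ D) (hw' : w' ∈ D)
    (h : ∃ k : ℕ, (w * w') ^ 2 ^ k = 1) : IsPGroup 2 ↥(Subgroup.zpowers w ⊔ Subgroup.zpowers w') := by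
  haveI := Fact.mk Nat.prime_two
  obtain ⟨k, hk⟩ := h
  have hn : Subgroup.zpowers w ≤ Subgroup.normalizer (Subgroup.zpowers (w * w') : Set G) := by
    rw [Subgroup.zpowers_le, Subgroup.mem_normalizer_iff_map_conj_eq, MonoidHom.map_zpowers]
    show Subgroup.zpowers (w * (w * w') * w⁻¹) = _
    rw [inv_eq hD hw, ← mul_assoc w w w', mul_self hD hw, one_mul,
      show w' * w = (w * w')⁻¹ by rw [mul_inv_rev, inv_eq hD hw, inv_eq hD hw'], Subgroup.zpowers_inv]
  have h1 : IsPGroup 2 ↥(Subgroup.zpowers (w * w')) := by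
    obtain ⟨j, -, hj⟩ := (Nat.dvd_prime_pow Nat.prime_two).mp (orderOf_dvd_of_pow_eq_one hk)
    exact IsPGroup.of_card (n := j) (by rw [Nat.card_zpowers, hj])
  have h2 : IsPGroup 2 ↥(Subgroup.zpowers w) :=
    IsPGroup.of_card (n := 1) (by rw [Nat.card_zpowers, hD.orderOf_eq w hw, pow_one])
  refine (h1.to_sup_of_normal_left' h2 hn).to_le (sup_le le_sup_right (Subgroup.zpowers_le.mpr ?_))
  have := mul_mem (Subgroup.mem_sup_right (S := Subgroup.zpowers (w * w')) (Subgroup.mem_zpowers w))
    (Subgroup.mem_sup_left (T := Subgroup.zpowers w) (Subgroup.mem_zpowers (w * w')))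
  rwa [← mul_assoc, mul_self hD hw, one_mul] at this

theorem isolated_conj (hD : IsRootInvolutionSet D) {w : G} (hw : IsIsolatedElem (OddAdj D) D w) (g : G) :
    IsIsolatedElem (OddAdj D) D (g * w * g⁻¹) := by
  refine ⟨hD.conj_mem w hw.1 g, fun b => ⟨fun h => ?_, fun h => ?_⟩⟩
  · exact (hw.2 (g⁻¹ * b * g)).1 (by simpa [mul_assoc] using adj_conj hD h g⁻¹)
  · exact (hw.2 (g⁻¹ * b * g)).2 (by simpa [mul_assoc] using adj_conj hD h g⁻¹)

theorem isolated_mem_pCore [Finite G] (hD : IsRootInvolutionSet D) {w : G}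
    (hw : IsIsolatedElem (OddAdj D) D w) : w ∈ pCore 2 G := by
  haveI := Fact.mk Nat.prime_two
  obtain ⟨N, hN, hN2, hle⟩ := Components.baer_suzuki (p := 2) (Subgroup.zpowers w) fun g => by
    rw [MonoidHom.map_zpowers]
    show IsPGroup 2 ↥(Subgroup.zpowers w ⊔ Subgroup.zpowers (g * w * g⁻¹))
    set w' := g * w * g⁻¹
    have hw' : w' ∈ D := hD.conj_mem w hw.1 g
    refine pgroup_pair hD hw.1 hw' ?_
    rcases hD.pair w hw.1 w' hw' with h | h | h
    · exact ⟨1, by rw [pow_one, (show Commute w w' from h).mul_pow, pow_two, pow_two, mul_self hD hw.1,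
        mul_self hD hw', one_mul]⟩
    · refine ⟨0, ?_⟩
      by_cases e : w = w'
      · rw [pow_zero, pow_one, ← e, mul_self hD hw.1]
      · exact absurd ⟨hw.1, hw', e, h⟩ (hw.2 w').1
    · exact ⟨2, by rw [show (2 : ℕ) ^ 2 = orderOf (w * w') by rw [h.1]; norm_num, pow_orderOf_eq_one]⟩
  exact Core.le_pCore hN hN2 (hle (Subgroup.mem_zpowers w))

theorem isolated_of_mem_pCore [Finite G] (hD : IsRootInvolutionSet D) {d : G} (hd : d ∈ D)
    (hc : d ∈ pCore 2 G) : IsIsolatedElem (OddAdj D) D d := by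
  haveI := Fact.mk Nat.prime_two
  have key : ∀ b, ¬ OddAdj D d b := by
    intro b h
    have hmem : (d * b) ^ 2 ∈ pCore 2 G := by
      rw [pow_two, show d * b * (d * b) = d * (b * d * b⁻¹) * (b * b) by group, mul_self hD h.2.1, mul_one]
      exact mul_mem hc ((inferInstance : (pCore 2 G).Normal).conj_mem d hc b)
    obtain ⟨k, hk⟩ := Core.isPGroup_pCore 2 G ⟨_, hmem⟩
    have hk' : ((d * b) ^ 2) ^ 2 ^ k = 1 := congrArg Subtype.val hk
    rw [← pow_mul, ← pow_succ'] at hk'
    have h1 : orderOf (d * b) = 1 := Nat.eq_one_of_dvd_coprimes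
      ((Nat.coprime_two_left.mpr h.2.2.2).pow_left (k + 1)) (orderOf_dvd_of_pow_eq_one hk') dvd_rfl
    rw [orderOf_eq_one_iff, mul_eq_one_iff_eq_inv, inv_eq hD h.2.1] at h1
    exact h.2.2.1 h1
  exact ⟨hd, fun b => ⟨key b, fun h => key b (adj_symm h)⟩⟩

theorem exists_adj_of_comp {a a' : G} (h : Relation.ReflTransGen (OddAdj D) a a') (hne : a' ≠ a) :
    ∃ x, OddAdj D a x := by
  rcases Relation.ReflTransGen.cases_head h with e | ⟨x, hx, -⟩
  · exact absurd e.symm hne
  · exact ⟨x, hx⟩

theorem elemComponentOf_eq {a b : G} (h : Relation.ReflTransGen (OddAdj D) a b) :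
    elemComponentOf (OddAdj D) D a = elemComponentOf (OddAdj D) D b := by
  ext c
  exact ⟨fun hc => ⟨hc.1, (comp_symm h).trans hc.2⟩, fun hc => ⟨hc.1, h.trans hc.2⟩⟩

theorem structure_isolated [Finite G] (hD : IsRootInvolutionSet D) :
    (∀ w ∈ {w | IsIsolatedElem (OddAdj D) D w}, ∀ g : G, g * w * g⁻¹ ∈ {w | IsIsolatedElem (OddAdj D) D w}) ∧
    (Subgroup.closure {w | IsIsolatedElem (OddAdj D) D w}).Normal ∧
    IsPGroup 2 ↥(Subgroup.closure {w | IsIsolatedElem (OddAdj D) D w}) ∧
    (Subgroup.closure {w | IsIsolatedElem (OddAdj D) D w} : Set G) ∩ D = {w | IsIsolatedElem (OddAdj D) D w} ∧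
    (∀ a ∈ D, ∀ b ∈ D, (∃ a' ∈ elemComponentOf (OddAdj D) D a, a' ≠ a) →
      (∃ b' ∈ elemComponentOf (OddAdj D) D b, b' ≠ b) →
      elemComponentOf (OddAdj D) D a ≠ elemComponentOf (OddAdj D) D b →
        a * b * a⁻¹ * b⁻¹ ∈ Subgroup.closure {w | IsIsolatedElem (OddAdj D) D w}) ∧
    (∀ a ∈ D, (∃ a' ∈ elemComponentOf (OddAdj D) D a, a' ≠ a) →
      productPartners D a ⊆ elemComponentOf (OddAdj D) D a ∪ {w | IsIsolatedElem (OddAdj D) D w}) := by
  set W := {w | IsIsolatedElem (OddAdj D) D w}
  have hle : Subgroup.closure W ≤ pCore 2 G :=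
    (Subgroup.closure_le _).mpr fun w hw => isolated_mem_pCore hD hw
  have hX : ∀ a ∈ D, (∃ a' ∈ elemComponentOf (OddAdj D) D a, a' ≠ a) → ∀ y ∈ D, y * a = a * y → y * a ∈ D →
      y ∈ elemComponentOf (OddAdj D) D a ∪ W := by
    rintro a ha ⟨a', ha', hne⟩ y hy hc hya
    obtain ⟨x, hx⟩ := exists_adj_of_comp ha'.2 hne
    rcases partner_comp hD hx hy hc hya with h | h
    · exact Or.inl ⟨hy, h⟩
    · exact Or.inr h
  refine ⟨fun w hw g => isolated_conj hD hw g, ?_, ?_, ?_, ?_, ?_⟩
  · refine ⟨fun n hn g => ?_⟩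
    have : (Subgroup.closure W).map (MulAut.conj g).toMonoidHom ≤ Subgroup.closure W := by
      rw [MonoidHom.map_closure, Subgroup.closure_le]
      rintro _ ⟨w, hw, rfl⟩
      exact Subgroup.subset_closure (isolated_conj hD hw g)
    exact this ⟨n, hn, rfl⟩
  · haveI := Fact.mk Nat.prime_two
    exact (Core.isPGroup_pCore 2 G).to_le hle
  · ext d
    exact ⟨fun h => isolated_of_mem_pCore hD h.2 (hle h.1), fun h => ⟨Subgroup.subset_closure h, h.1⟩⟩
  · intro a ha b hb hA hB hne
    rw [inv_eq hD ha, inv_eq hD hb]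
    rcases hD.pair a ha b hb with h | h | h
    · rw [show a * b * a * b = (a * b) * (a * b) by group]
      nth_rewrite 2 [h]
      rw [show a * b * (b * a) = a * (b * b) * a by group, mul_self hD hb, mul_one, mul_self hD ha]
      exact one_mem _
    · exfalso
      apply hne
      by_cases e : a = b
      · rw [e]
      · exact elemComponentOf_eq (Relation.ReflTransGen.single ⟨ha, hb, e, h⟩)
    · set c := a * b * a * b with hcdef
      have hce : c = (a * b) ^ 2 := by rw [hcdef, pow_two]; group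
      have h4 : (a * b * a * b) * (a * b * a * b) = 1 := by
        rw [← hcdef, hce, ← pow_add, show 2 + 2 = orderOf (a * b) from h.1.symm, pow_orderOf_eq_one]
      have hcD : c ∈ D := hce ▸ h.2
      have hcinv : c = b * a * b * a := by
        rw [hcdef, eq_inv_of_mul_eq_one_left h4]
        rw [show (a * b * a * b)⁻¹ = b⁻¹ * a⁻¹ * b⁻¹ * a⁻¹ by group, inv_eq hD ha, inv_eq hD hb]
      have hca : c * a = a * c := by
        conv_lhs => rw [hcdef]
        conv_rhs => rw [hcinv]
        group
      have hcb : c * b = b * c := by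
        conv_lhs => rw [hcinv]
        conv_rhs => rw [hcdef]
        group
      have hcaD : c * a ∈ D := by
        rw [hcinv, show b * a * b * a * a = b * a * b * (a * a) by group, mul_self hD ha, mul_one]
        have := hD.conj_mem a ha b
        rwa [inv_eq hD hb] at this
      have hcbD : c * b ∈ D := by
        rw [hcdef, show a * b * a * b * b = a * b * a * (b * b) by group, mul_self hD hb, mul_one]
        have := hD.conj_mem b hb a
        rwa [inv_eq hD ha] at this
      rcases hX a ha hA c hcD hca hcaD with h1 | h1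
      · rcases hX b hb hB c hcD hcb hcbD with h2 | h2
        · exact absurd ((elemComponentOf_eq h1.2).trans (elemComponentOf_eq h2.2).symm) hne
        · exact Subgroup.subset_closure h2
      · exact Subgroup.subset_closure h1
  · intro a ha hA y hy
    exact hX a ha hA y hy.1.1 hy.1.2.1 hy.2

end Cfsg.Agent.TwoGroups.RootInv
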