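/-
A conjugate of `z` inside `O_2(C(z))` of symplectic type and exponent four.
-/
import Cfsg.Agent.Transfer.SymplecticType
import Cfsg.Agent.FGS3.Extraspecial
import Cfsg.Agent.Screen.SylowAux
import Cfsg.Prelude.Def_ClassificationK

set_option linter.unusedSectionVars false
set_option linter.style.haveILetI false

namespace Cfsg.Agent.TwoGroups

open scoped commutatorElement

variable {G : Type*} [Group G] [Finite G]

theorem twoCases {x : G} (hx : x * x = 1) {e : G} (he : e ∈ Subgroup.zpowers x) : e = 1 ∨ e = x := by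
  obtain ⟨i, rfl⟩ := he
  rcases Int.even_or_odd' i with ⟨j, rfl | rfl⟩
  · left; show x ^ (2 * j) = 1; rw [zpow_mul, show x ^ (2 : ℤ) = 1 by rw [zpow_two, hx], one_zpow]
  · right; show x ^ (2 * j + 1) = x
    rw [zpow_add, zpow_mul, show x ^ (2 : ℤ) = 1 by rw [zpow_two, hx], one_zpow, one_mul, zpow_one]

/-- `Q` behaves like `O_2(C(z))` of symplectic type and exponent four. -/
structure SympCore (z : G) (Q : Subgroup G) : Prop where
  sq : z * z = 1
  ne : z ≠ 1
  mem : z ∈ Q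
  cen : ∀ q ∈ Q, q * z = z * q
  norm : ∀ h : G, h * z = z * h → ∀ q ∈ Q, h * q * h⁻¹ ∈ Q
  self : ∀ h : G, h * z = z * h → (∀ q ∈ Q, h * q = q * h) → h ∈ Q
  comm : ∀ a ∈ Q, ∀ b ∈ Q, a * b * a⁻¹ * b⁻¹ ∈ Subgroup.zpowers z
  square : ∀ a ∈ Q, a * a ∈ Subgroup.zpowers z
  involution : ∀ y ∈ Q, y * y = 1 → (∀ q ∈ Q, q * y = y * q) → y = 1 ∨ y = z

namespace SympCore

variable {z : G} {Q : Subgroup G} (h : SympCore z Q)
include h

theorem map (g : G) : SympCore (g * z * g⁻¹) (Q.map (MulAut.conj g).toMonoidHom) := by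
  have hz : ∀ e ∈ Subgroup.zpowers z, g * e * g⁻¹ ∈ Subgroup.zpowers (g * z * g⁻¹) := by
    intro e he
    rcases twoCases h.sq he with rfl | rfl
    · simp
    · exact Subgroup.mem_zpowers _
  refine ⟨?_, fun e => h.ne ?_, ⟨z, h.mem, rfl⟩, ?_, ?_, ?_, ?_, ?_, ?_⟩
  · rw [show g * z * g⁻¹ * (g * z * g⁻¹) = g * (z * z) * g⁻¹ by group, h.sq]; group
  · simpa using e
  · rintro _ ⟨q, hq, rfl⟩
    show g * q * g⁻¹ * (g * z * g⁻¹) = g * z * g⁻¹ * (g * q * g⁻¹)
    rw [show g * q * g⁻¹ * (g * z * g⁻¹) = g * (q * z) * g⁻¹ by group, h.cen q hq]; group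
  · rintro x hx _ ⟨q, hq, rfl⟩
    refine ⟨g⁻¹ * x * g * q * (g⁻¹ * x * g)⁻¹, h.norm _ ?_ q hq, by simp [mul_assoc]⟩
    calc g⁻¹ * x * g * z = g⁻¹ * (x * (g * z * g⁻¹)) * g := by group
      _ = g⁻¹ * ((g * z * g⁻¹) * x) * g := by rw [hx]
      _ = z * (g⁻¹ * x * g) := by group
  · intro x hx hc
    refine ⟨g⁻¹ * x * g, h.self _ ?_ fun q hq => ?_, by simp [mul_assoc]⟩
    · calc g⁻¹ * x * g * z = g⁻¹ * (x * (g * z * g⁻¹)) * g := by group
        _ = g⁻¹ * ((g * z * g⁻¹) * x) * g := by rw [hx]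
        _ = z * (g⁻¹ * x * g) := by group
    · have := hc (g * q * g⁻¹) ⟨q, hq, rfl⟩
      calc g⁻¹ * x * g * q = g⁻¹ * (x * (g * q * g⁻¹)) * g := by group
        _ = g⁻¹ * ((g * q * g⁻¹) * x) * g := by rw [this]
        _ = q * (g⁻¹ * x * g) := by group
  · rintro _ ⟨a, ha, rfl⟩ _ ⟨b, hb, rfl⟩
    show g * a * g⁻¹ * (g * b * g⁻¹) * (g * a * g⁻¹)⁻¹ * (g * b * g⁻¹)⁻¹ ∈ _
    rw [show g * a * g⁻¹ * (g * b * g⁻¹) * (g * a * g⁻¹)⁻¹ * (g * b * g⁻¹)⁻¹ =
      g * (a * b * a⁻¹ * b⁻¹) * g⁻¹ by group]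
    exact hz _ (h.comm a ha b hb)
  · rintro _ ⟨a, ha, rfl⟩
    show g * a * g⁻¹ * (g * a * g⁻¹) ∈ _
    rw [show g * a * g⁻¹ * (g * a * g⁻¹) = g * (a * a) * g⁻¹ by group]
    exact hz _ (h.square a ha)
  · rintro _ ⟨y, hy, rfl⟩ hy2 hyc
    have h1 : y * y = 1 := by
      have e : g * (y * y) * g⁻¹ = 1 := by rw [← hy2]; show _ = g * y * g⁻¹ * (g * y * g⁻¹); group
      simpa using e
    rcases h.involution y hy h1 (fun q hq => by
      have e : g * q * g⁻¹ * (g * y * g⁻¹) = g * y * g⁻¹ * (g * q * g⁻¹) := hyc _ ⟨q, hq, rfl⟩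
      calc q * y = g⁻¹ * (g * q * g⁻¹ * (g * y * g⁻¹)) * g := by group
        _ = g⁻¹ * (g * y * g⁻¹ * (g * q * g⁻¹)) * g := by rw [e]
        _ = y * q := by group) with rfl | rfl
    · left; simp
    · exact Or.inr rfl

theorem exists_swap {w : G} (hw : w ∈ Q) (hwne : w ≠ z) (hw2 : w * w = 1) (hw1 : w ≠ 1) :
    ∃ q ∈ Q, q * w * q⁻¹ = z * w := by
  by_contra hcon
  push Not at hcon
  have hcomm : ∀ q ∈ Q, q * w = w * q := fun q hq => by
    rcases twoCases h.sq (h.comm q hq w hw) with e | e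
    · exact mul_inv_eq_iff_eq_mul.mp (mul_inv_eq_one.mp e)
    · exact absurd (mul_inv_eq_iff_eq_mul.mp e) (hcon q hq)
  rcases h.involution w hw hw2 hcomm with e | e
  · exact hw1 e
  · exact hwne e

/-- In the small case an element outside `⟨z, c⟩` does not commute with `c`. -/
theorem small {w : G} (hw : w ∈ Q) (hwne : w ≠ z) (hw2 : w * w = 1) (hw1 : w ≠ 1)
    (hab : ∀ a ∈ Q, ∀ b ∈ Q, a * w = w * a → b * w = w * b → a * b = b * a)
    (hel : ∀ a ∈ Q, a * w = w * a → a * a = 1)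
    {c q : G} (hc : c ∈ Q) (hq : q ∈ Q) (hcq : c * q = q * c) (hc1 : c ≠ 1) (hcz : c ≠ z) :
    q = 1 ∨ q = z ∨ q = c ∨ q = z * c := by
  obtain ⟨q₀, hq₀, hsw⟩ := h.exists_swap hw hwne hw2 hw1
  have hzw : w * z = z * w := h.cen w hw
  have hP : ∀ a ∈ Q, a * w = w * a → a = 1 ∨ a = z ∨ a = w ∨ a = z * w := by
    intro a ha haw
    have key : ∀ y ∈ Q, y * w = w * y → y * q₀ = q₀ * y → y = 1 ∨ y = z := by
      intro y hy hyw hyq
      refine h.involution y hy (hel y hy hyw) fun r hr => ?_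
      rcases twoCases h.sq (h.comm r hr w hw) with e | e
      · exact hab r hr y hy (mul_inv_eq_iff_eq_mul.mp (mul_inv_eq_one.mp e)) hyw
      · have e' : r * w * r⁻¹ = z * w := mul_inv_eq_iff_eq_mul.mp e
        have h1 : (q₀⁻¹ * r) * w = w * (q₀⁻¹ * r) := by
          calc (q₀⁻¹ * r) * w = q₀⁻¹ * (r * w * r⁻¹) * r := by group
            _ = q₀⁻¹ * (q₀ * w * q₀⁻¹) * r := by rw [e', hsw]
            _ = w * (q₀⁻¹ * r) := by group
        have h2 := hab _ (mul_mem (inv_mem hq₀) hr) y hy h1 hyw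
        calc r * y = q₀ * ((q₀⁻¹ * r) * y) := by group
          _ = q₀ * y * (q₀⁻¹ * r) := by rw [h2]; group
          _ = y * r := by rw [← hyq]; group
    rcases twoCases h.sq (h.comm q₀ hq₀ a ha) with e | e
    · rcases key a ha haw (mul_inv_eq_iff_eq_mul.mp (mul_inv_eq_one.mp e)).symm with r | r <;> simp [r]
    · have e1 : q₀ * a * q₀⁻¹ = z * a := mul_inv_eq_iff_eq_mul.mp e
      have h3 : a * w * q₀ = q₀ * (a * w) := by
        have : q₀ * (a * w) * q₀⁻¹ = a * w := by
          calc q₀ * (a * w) * q₀⁻¹ = (q₀ * a * q₀⁻¹) * (q₀ * w * q₀⁻¹) := by group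
            _ = z * (a * z) * w := by rw [e1, hsw]; group
            _ = (z * z) * (a * w) := by rw [h.cen a ha]; group
            _ = a * w := by rw [h.sq, one_mul]
        exact (mul_inv_eq_iff_eq_mul.mp this).symm
      rcases key (a * w) (mul_mem ha hw) (by rw [mul_assoc, hw2, mul_one, ← mul_assoc, ← haw, mul_assoc, hw2, mul_one]) h3 with r | r
      · right; right; left
        calc a = a * w * w := by rw [mul_assoc, hw2, mul_one]
          _ = w := by rw [r, one_mul]
      · right; right; right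
        calc a = a * w * w := by rw [mul_assoc, hw2, mul_one]
          _ = z * w := by rw [r]
  by_cases hcw : c * w = w * c
  · have hqw : q * w = w * q := by
      rcases hP c hc hcw with e | e | e | e
      · exact absurd e hc1
      · exact absurd e hcz
      · rw [e] at hcq; exact hcq.symm
      · subst e
        have : z * (w * q) = z * (q * w) := by
          calc z * (w * q) = q * (z * w) := by rw [← hcq]; group
            _ = z * (q * w) := by rw [← mul_assoc, h.cen q hq]; group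
        exact (mul_left_cancel this).symm
    rcases hP q hq hqw with e | e | e | e
    · exact Or.inl e
    · exact Or.inr (Or.inl e)
    all_goals rcases hP c hc hcw with r | r | r | r
    all_goals first
      | exact absurd r hc1
      | exact absurd r hcz
      | exact Or.inr (Or.inr (Or.inl (e.trans r.symm)))
      | (right; right; right; rw [e, r]; done)
      | (right; right; right; rw [e, r, ← mul_assoc, h.sq, one_mul])
  · by_cases hqw : q * w = w * q
    · rcases hP q hq hqw with e | e | e | e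
      · exact Or.inl e
      · exact Or.inr (Or.inl e)
      · exact absurd (e ▸ hcq) hcw
      · exfalso
        apply hcw
        subst e
        have : z * (c * w) = z * (w * c) := by
          calc z * (c * w) = c * (z * w) := by rw [← mul_assoc, ← h.cen c hc]; group
            _ = z * (w * c) := by rw [hcq]; group
        exact mul_left_cancel this
    · have e1 : ∀ r ∈ Q, ¬ r * w = w * r → r * w * r⁻¹ = z * w := by
        intro r hr hne
        rcases twoCases h.sq (h.comm r hr w hw) with e | e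
        · exact absurd (mul_inv_eq_iff_eq_mul.mp (mul_inv_eq_one.mp e)) hne
        · exact mul_inv_eq_iff_eq_mul.mp e
      have h1 : (c⁻¹ * q) * w = w * (c⁻¹ * q) := by
        calc (c⁻¹ * q) * w = c⁻¹ * (q * w * q⁻¹) * q := by group
          _ = c⁻¹ * (c * w * c⁻¹) * q := by rw [e1 q hq hqw, e1 c hc hcw]
          _ = w * (c⁻¹ * q) := by group
      have h2 : Commute c (c⁻¹ * q) := by
        show c * (c⁻¹ * q) = c⁻¹ * q * c
        rw [mul_assoc c⁻¹, ← hcq]; group
      rcases hP _ (mul_mem (inv_mem hc) hq) h1 with e | e | e | e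
      · right; right; left
        calc q = c * (c⁻¹ * q) := by group
          _ = c := by rw [e, mul_one]
      · right; right; right
        calc q = c * (c⁻¹ * q) := by group
          _ = z * c := by rw [e, h.cen c hc]
      · exact absurd (e ▸ h2.eq) hcw
      · exfalso
        apply hcw
        rw [e] at h2
        have hz' : Commute c z := h.cen c hc
        have := hz'.mul_right h2
        rw [← mul_assoc, h.sq, one_mul] at this
        exact this.eq

/-- A conjugate of `z` in `Q`: `z` lies in the conjugate of `Q`. -/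
theorem mem_conj (g : G) (hne : g * z * g⁻¹ ≠ z) (hin : g * z * g⁻¹ ∈ Q) :
    z ∈ Q.map (MulAut.conj g).toMonoidHom := by
  by_contra hzQ'
  have h' := h.map g
  set w := g * z * g⁻¹ with hwdef
  set R := Q.map (MulAut.conj g).toMonoidHom with hR
  have hzw : z * w = w * z := (h.cen w hin).symm
  obtain ⟨q₀, hq₀, hsw⟩ := h.exists_swap hin hne h'.sq h'.ne
  have hq₀z : q₀ * z * q₀⁻¹ = z := by rw [h.cen q₀ hq₀, mul_inv_cancel_right]
  -- no element of `R` maps `z` to `zw`
  have hX : ∀ x ∈ R, z * x * z * x⁻¹ ∈ Subgroup.zpowers w → z * x = x * z := by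
    intro x hx hxw
    rcases twoCases h'.sq hxw with e | e
    · have e' : z * x * z = x := mul_inv_eq_one.mp e
      calc z * x = z * x * (z * z) := by rw [h.sq, mul_one]
        _ = z * x * z * z := by group
        _ = x * z := by rw [e']
    exfalso
    have ex : x * z * x⁻¹ = z * w := by
      calc x * z * x⁻¹ = (z * z) * (x * z * x⁻¹) := by rw [h.sq, one_mul]
        _ = z * (z * x * z * x⁻¹) := by group
        _ = z * w := by rw [e]
    have exw : x * w * x⁻¹ = w := by rw [h'.cen x hx, mul_inv_cancel_right]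
    set n := q₀ * x * q₀ with hn
    have hnz : n * z * n⁻¹ = w := by
      calc n * z * n⁻¹ = q₀ * (x * (q₀ * z * q₀⁻¹) * x⁻¹) * q₀⁻¹ := by rw [hn]; group
        _ = q₀ * (z * w) * q₀⁻¹ := by rw [hq₀z, ex]
        _ = (q₀ * z * q₀⁻¹) * (q₀ * w * q₀⁻¹) := by group
        _ = z * (z * w) := by rw [hq₀z, hsw]
        _ = w := by rw [← mul_assoc, h.sq, one_mul]
    have hnw : n * w * n⁻¹ = z := by
      calc n * w * n⁻¹ = q₀ * (x * (q₀ * w * q₀⁻¹) * x⁻¹) * q₀⁻¹ := by rw [hn]; group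
        _ = q₀ * ((x * z * x⁻¹) * (x * w * x⁻¹)) * q₀⁻¹ := by rw [hsw]; group
        _ = q₀ * (z * (w * w)) * q₀⁻¹ := by rw [ex, exw]; group
        _ = z := by rw [h'.sq, mul_one, hq₀z]
    apply hzQ'
    refine ⟨g⁻¹ * n * w * (g⁻¹ * n)⁻¹, h.norm _ ?_ w hin, ?_⟩
    · calc g⁻¹ * n * z = g⁻¹ * (n * z * n⁻¹) * n := by group
        _ = z * (g⁻¹ * n) := by rw [hnz, hwdef]; group
    · show g * (g⁻¹ * n * w * (g⁻¹ * n)⁻¹) * g⁻¹ = z
      calc g * (g⁻¹ * n * w * (g⁻¹ * n)⁻¹) * g⁻¹ = n * w * n⁻¹ := by group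
        _ = z := hnw
  -- the intersection
  have hD : ∀ d ∈ Q, d ∈ R → d ∈ Subgroup.zpowers w := by
    intro d hdQ hdR
    have hd2 : d * d = 1 := by
      rcases twoCases h.sq (h.square d hdQ) with e | e
      · exact e
      · exact absurd (e ▸ mul_mem hdR hdR) hzQ'
    have hP : ∀ p ∈ Q, p * w = w * p → p * d = d * p := by
      intro p hp hpw
      rcases twoCases h.sq (h.comm p hp d hdQ) with e | e
      · exact mul_inv_eq_iff_eq_mul.mp (mul_inv_eq_one.mp e)
      · exact absurd (e ▸ mul_mem (h'.norm p hpw d hdR) (inv_mem hdR)) hzQ'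
    have hdw : d * w = w * d := (hP w hin rfl).symm
    have hgen : ∀ y : G, y * q₀ = q₀ * y → (∀ p ∈ Q, p * w = w * p → p * y = y * p) →
        ∀ r ∈ Q, r * y = y * r := by
      intro y hyq hyP r hr
      rcases twoCases h.sq (h.comm r hr w hin) with e | e
      · exact hyP r hr (mul_inv_eq_iff_eq_mul.mp (mul_inv_eq_one.mp e))
      · have e' : r * w * r⁻¹ = z * w := mul_inv_eq_iff_eq_mul.mp e
        have h1 : (q₀⁻¹ * r) * w = w * (q₀⁻¹ * r) := by
          calc (q₀⁻¹ * r) * w = q₀⁻¹ * (r * w * r⁻¹) * r := by group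
            _ = q₀⁻¹ * (q₀ * w * q₀⁻¹) * r := by rw [e', hsw]
            _ = w * (q₀⁻¹ * r) := by group
        have h2 := hyP _ (mul_mem (inv_mem hq₀) hr) h1
        calc r * y = q₀ * ((q₀⁻¹ * r) * y) := by group
          _ = q₀ * y * (q₀⁻¹ * r) := by rw [h2]; group
          _ = y * r := by rw [← hyq]; group
    rcases twoCases h.sq (h.comm q₀ hq₀ d hdQ) with e | e
    · rcases h.involution d hdQ hd2 (hgen d (mul_inv_eq_iff_eq_mul.mp (mul_inv_eq_one.mp e)).symm hP) with r | r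
      · rw [r]; exact one_mem _
      · exact absurd (r ▸ hdR) hzQ'
    · have e1 : q₀ * d * q₀⁻¹ = z * d := mul_inv_eq_iff_eq_mul.mp e
      have h3 : d * w * q₀ = q₀ * (d * w) := by
        have : q₀ * (d * w) * q₀⁻¹ = d * w := by
          calc q₀ * (d * w) * q₀⁻¹ = (q₀ * d * q₀⁻¹) * (q₀ * w * q₀⁻¹) := by group
            _ = z * (d * z) * w := by rw [e1, hsw]; group
            _ = (z * z) * (d * w) := by rw [h.cen d hdQ]; group
            _ = d * w := by rw [h.sq, one_mul]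
        exact (mul_inv_eq_iff_eq_mul.mp this).symm
      have hP' : ∀ p ∈ Q, p * w = w * p → p * (d * w) = d * w * p := fun p hp hpw =>
        (Commute.mul_right (hP p hp hpw) hpw : Commute p (d * w)).eq
      rcases h.involution (d * w) (mul_mem hdQ hin) (by
        rw [show d * w * (d * w) = d * (w * d) * w by group, ← hdw,
          show d * (d * w) * w = (d * d) * (w * w) by group, hd2, h'.sq, one_mul])
        (hgen _ h3 hP') with r | r
      · rw [show d = d * w * w by rw [mul_assoc, h'.sq, mul_one], r, one_mul]; exact Subgroup.mem_zpowers w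
      · exact absurd (r ▸ mul_mem hdR h'.mem) hzQ'
  -- `P` acts trivially on `C_R(z)/⟨w⟩`
  have hL1 : ∀ p ∈ Q, p * w = w * p → ∀ x ∈ R, z * x = x * z → p * x * p⁻¹ * x⁻¹ ∈ Subgroup.zpowers w := by
    intro p hp hpw x hx hxz
    refine hD _ ?_ (mul_mem (h'.norm p hpw x hx) (inv_mem hx))
    rw [show p * x * p⁻¹ * x⁻¹ = p * (x * p⁻¹ * x⁻¹) by group]
    exact mul_mem hp (h.norm x hxz.symm _ (inv_mem hp))
  have hwc : ∀ e ∈ Subgroup.zpowers w, ∀ y : G, y * w = w * y → y * e = e * y := by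
    intro e he y hy
    rcases twoCases h'.sq he with rfl | rfl
    · rw [mul_one, one_mul]
    · exact hy
  set c : G → G := fun q => z * q * z * q⁻¹ with hcdef
  have hcR : ∀ q ∈ R, c q ∈ R := fun q hq => by
    have hzi : z⁻¹ = z := inv_eq_of_mul_eq_one_right h.sq
    have := h'.norm z hzw q hq
    rw [hzi] at this
    exact mul_mem this (inv_mem hq)
  have hzi : z⁻¹ = z := inv_eq_of_mul_eq_one_right h.sq
  have hzcz : ∀ q : G, z * c q * z = (c q)⁻¹ := fun q => by
    simp only [hcdef, mul_inv_rev, inv_inv, hzi]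
    calc z * (z * q * z * q⁻¹) * z = (z * z) * (q * (z * (q⁻¹ * z))) := by group
      _ = q * (z * (q⁻¹ * z)) := by rw [h.sq, one_mul]
  have hcz : ∀ q ∈ R, z * c q = c q * z := fun q hq => by
    refine hX _ (hcR q hq) ?_
    rw [hzcz q, ← mul_inv_rev]
    exact inv_mem (h'.square _ (hcR q hq))
  have hd : ∀ p ∈ Q, p * w = w * p → ∀ q ∈ R,
      p * q * p⁻¹ * q⁻¹ ∈ R ∧ z * (p * q * p⁻¹ * q⁻¹) = (p * q * p⁻¹ * q⁻¹) * z := by
    intro p hp hpw q hq
    have hdR : p * q * p⁻¹ * q⁻¹ ∈ R := mul_mem (h'.norm p hpw q hq) (inv_mem hq)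
    refine ⟨hdR, hX _ hdR ?_⟩
    set d := p * q * p⁻¹ * q⁻¹ with hddef
    set cq := c q with hcq
    have hzp : z * p * z = p := by rw [← h.cen p hp, mul_assoc, h.sq, mul_one]
    have hzpi : z * p⁻¹ * z = p⁻¹ := by rw [← h.cen _ (inv_mem hp), mul_assoc, h.sq, mul_one]
    have hzq : z * q * z = cq * q := by rw [hcq, hcdef]; group
    have hzqi : z * q⁻¹ * z = q⁻¹ * cq⁻¹ := by
      rw [← mul_inv_rev, ← hzq]; simp only [mul_inv_rev, hzi, mul_assoc]
    have e1 : z * d * z = (p * cq * p⁻¹ * cq⁻¹) * (cq * d * cq⁻¹) := by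
      calc z * d * z = z * p * (1 : G) * q * 1 * p⁻¹ * 1 * q⁻¹ * z := by rw [hddef]; group
        _ = (z * p * z) * (z * q * z) * (z * p⁻¹ * z) * (z * q⁻¹ * z) := by rw [← h.sq]; group
        _ = p * (cq * q) * p⁻¹ * (q⁻¹ * cq⁻¹) := by rw [hzp, hzq, hzpi, hzqi]
        _ = (p * cq * p⁻¹ * cq⁻¹) * (cq * d * cq⁻¹) := by rw [hddef]; group
    rw [show z * d * z * d⁻¹ = (p * cq * p⁻¹ * cq⁻¹) * (cq * d * cq⁻¹ * d⁻¹) by rw [e1]; group]
    exact mul_mem (hL1 p hp hpw cq (hcR q hq) (hcz q hq)) (h'.comm cq (hcR q hq) d hdR)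
  -- `p₁p₂` acts on `R` as the product of the two displacements
  have hcomp : ∀ p ∈ Q, p * w = w * p → ∀ p' ∈ Q, p' * w = w * p' → ∀ q ∈ R,
      ∃ e ∈ Subgroup.zpowers w,
        p * p' * q * (p * p')⁻¹ = e * ((p' * q * p'⁻¹ * q⁻¹) * (p * q * p⁻¹ * q⁻¹) * q) := by
    intro p hp hpw p' hp' hpw' q hq
    obtain ⟨hdR, hdz⟩ := hd p' hp' hpw' q hq
    refine ⟨_, hL1 p hp hpw _ hdR hdz, ?_⟩
    group
  have hgoal : ∀ y : G, y = z → (∀ q ∈ R, ∃ e ∈ Subgroup.zpowers w, y * q * y⁻¹ = e * q) → False := by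
    intro y hyz hy
    apply hzQ'
    refine h'.self z hzw fun q hq => hX q hq ?_
    obtain ⟨e, he, heq⟩ := hy q hq
    rw [hyz, hzi] at heq
    rwa [heq, mul_inv_cancel_right]
  by_cases hna : ∃ p ∈ Q, ∃ p' ∈ Q, p * w = w * p ∧ p' * w = w * p' ∧ p * p' ≠ p' * p
  · obtain ⟨p, hp, p', hp', hpw, hpw', hne'⟩ := hna
    have hu : (p' * p)⁻¹ * (p * p') = z := by
      rcases twoCases h.sq (show (p' * p)⁻¹ * (p * p') ∈ Subgroup.zpowers z by
        have := h.comm p⁻¹ (inv_mem hp) p'⁻¹ (inv_mem hp')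
        simpa [mul_assoc] using this) with e | e
      · exact absurd (inv_mul_eq_one.mp e).symm hne'
      · exact e
    refine hgoal _ hu fun q hq => ?_
    obtain ⟨e₁, he₁, h1⟩ := hcomp p hp hpw p' hp' hpw' q hq
    obtain ⟨e₂, he₂, h2⟩ := hcomp p' hp' hpw' p hp hpw q hq
    set d := p * q * p⁻¹ * q⁻¹
    set d' := p' * q * p'⁻¹ * q⁻¹
    obtain ⟨hdR, -⟩ := hd p hp hpw q hq
    obtain ⟨hdR', -⟩ := hd p' hp' hpw' q hq
    have h3 : p * p' * q * (p * p')⁻¹ = (e₁ * (d' * d * d'⁻¹ * d⁻¹) * e₂⁻¹) * (p' * p * q * (p' * p)⁻¹) := by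
      rw [h1, h2]; group
    set E := e₁ * (d' * d * d'⁻¹ * d⁻¹) * e₂⁻¹
    have hE : E ∈ Subgroup.zpowers w := mul_mem (mul_mem he₁ (h'.comm d' hdR' d hdR)) (inv_mem he₂)
    have hvE : p' * p * E = E * (p' * p) := hwc E hE _ (by rw [mul_assoc, hpw, ← mul_assoc, hpw', mul_assoc])
    refine ⟨E, hE, ?_⟩
    calc (p' * p)⁻¹ * (p * p') * q * ((p' * p)⁻¹ * (p * p'))⁻¹
        = (p' * p)⁻¹ * (p * p' * q * (p * p')⁻¹) * (p' * p) := by group
      _ = (p' * p)⁻¹ * (E * (p' * p)) * q := by rw [h3]; group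
      _ = E * q := by rw [← hvE]; group
  push Not at hna
  by_cases hsq : ∃ p ∈ Q, p * w = w * p ∧ p * p ≠ 1
  · obtain ⟨p, hp, hpw, hp2⟩ := hsq
    refine hgoal (p * p) ((twoCases h.sq (h.square p hp)).resolve_left hp2) fun q hq => ?_
    obtain ⟨e, he, h1⟩ := hcomp p hp hpw p hp hpw q hq
    obtain ⟨hdR, -⟩ := hd p hp hpw q hq
    exact ⟨e * ((p * q * p⁻¹ * q⁻¹) * (p * q * p⁻¹ * q⁻¹)), mul_mem he (h'.square _ hdR), by rw [h1]; group⟩
  push Not at hsq
  -- the small case
  apply hzQ'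
  refine h'.self z hzw fun q hq => ?_
  by_contra hne'
  set cq := c q with hcq
  have hc2 : cq * cq = 1 := by
    have h1 := hzcz q
    rw [← hcq, hcz q hq, mul_assoc, h.sq, mul_one] at h1
    calc cq * cq = cq * cq⁻¹ := by rw [← h1]
      _ = 1 := mul_inv_cancel cq
  have hcomm : cq * q = q * cq := by
    have hqq : z * (q * q) * z = q * q := by
      rw [hwc _ (h'.square q hq) z hzw, mul_assoc, h.sq, mul_one]
    have hzq : z * q * z = cq * q := by rw [hcq, hcdef]; group
    have h2 : cq * q * (cq * q) = q * q := by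
      rw [← hzq, show z * q * z * (z * q * z) = z * q * (z * z) * q * z by group, h.sq, mul_one,
        show z * q * q * z = z * (q * q) * z by group, hqq]
    have h3 : cq * q * cq = q := by
      calc cq * q * cq = cq * q * (cq * q) * q⁻¹ := by group
        _ = q := by rw [h2, mul_inv_cancel_right]
    calc cq * q = cq * q * (cq * cq) := by rw [hc2, mul_one]
      _ = q * cq := by rw [← mul_assoc, h3]
  have hcne : ∀ e ∈ Subgroup.zpowers w, cq ≠ e := fun e he hce => hne' (hX q hq (hce ▸ he : cq ∈ Subgroup.zpowers w))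
  obtain ⟨c₀, hc₀, ec⟩ := hcR q hq
  obtain ⟨r, hr, er⟩ := hq
  have ec' : g * c₀ * g⁻¹ = cq := ec
  have er' : g * r * g⁻¹ = q := er
  have hcr : c₀ * r = r * c₀ := by
    rw [← ec', ← er'] at hcomm
    calc c₀ * r = g⁻¹ * (g * c₀ * g⁻¹ * (g * r * g⁻¹)) * g := by group
      _ = g⁻¹ * (g * r * g⁻¹ * (g * c₀ * g⁻¹)) * g := by rw [hcomm]
      _ = r * c₀ := by group
  have hqz : z * cq = cq * z := hcz q ⟨r, hr, er⟩
  rcases h.small hin hne h'.sq h'.ne (fun a ha b hb => hna a ha b hb) hsq hc₀ hr hcr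
    (fun e => hcne 1 (one_mem _) (by rw [← ec', e]; group))
    (fun e => hcne w (Subgroup.mem_zpowers w) (by rw [← ec', e])) with e | e | e | e
  · apply hne'; rw [← er', e]; group
  · apply hne'; rw [← er', e]; exact hzw
  · apply hne'; rw [← er', e, ec']; exact hqz
  · apply hne'
    rw [← er', e, show g * (z * c₀) * g⁻¹ = (g * z * g⁻¹) * (g * c₀ * g⁻¹) by group, ← hwdef, ec']
    exact ((show Commute z w from hzw).mul_right hqz).eq

/-- `Q ⊔ Q^g` is transitive on ordered pairs of distinct involutions of `⟨z, w⟩`. -/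
theorem transitive (g : G) (hne : g * z * g⁻¹ ≠ z) (hin : g * z * g⁻¹ ∈ Q) :
    ∀ u ∈ Subgroup.closure ({z, g * z * g⁻¹} : Set G), ∀ v ∈ Subgroup.closure ({z, g * z * g⁻¹} : Set G),
      u ≠ 1 → v ≠ 1 → u ≠ v → ∃ x ∈ Q ⊔ Q.map (MulAut.conj g).toMonoidHom,
        x * z * x⁻¹ = u ∧ x * (g * z * g⁻¹) * x⁻¹ = v := by
  have h' := h.map g
  set w := g * z * g⁻¹ with hwdef
  have hzR := h.mem_conj g hne hin
  obtain ⟨a, haQ, haw⟩ := h.exists_swap hin hne h'.sq h'.ne
  obtain ⟨b, hbR, hbz⟩ := h'.exists_swap hzR hne.symm h.sq h.ne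
  have hzw : z * w = w * z := (h.cen w hin).symm
  rw [← hzw] at hbz
  have haz : a * z * a⁻¹ = z := by rw [h.cen a haQ, mul_inv_cancel_right]
  have hbw : b * w * b⁻¹ = w := by rw [h'.cen b hbR, mul_inv_cancel_right]
  have hzzw : z * (z * w) = w := by rw [← mul_assoc, h.sq, one_mul]
  have hzww : z * w * w = z := by rw [mul_assoc, h'.sq, mul_one]
  have hmem : ∀ u ∈ Subgroup.closure ({z, w} : Set G), u = 1 ∨ u = z ∨ u = w ∨ u = z * w := by
    intro u hu
    induction hu using Subgroup.closure_induction with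
    | mem x hx =>
      rcases hx with rfl | hx
      · exact Or.inr (Or.inl rfl)
      · exact Or.inr (Or.inr (Or.inl hx))
    | one => exact Or.inl rfl
    | mul x y _ _ hx hy =>
      rcases hx with rfl | rfl | rfl | rfl <;> rcases hy with rfl | rfl | rfl | rfl
      · left; exact one_mul 1
      · right; left; exact one_mul _
      · right; right; left; exact one_mul _
      · right; right; right; exact one_mul _
      · right; left; exact mul_one _
      · left; exact h.sq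
      · right; right; right; rfl
      · right; right; left; exact hzzw
      · right; right; left; exact mul_one _
      · right; right; right; exact hzw.symm
      · left; exact h'.sq
      · right; left; rw [hzw, ← mul_assoc, h'.sq, one_mul]
      · right; right; right; exact mul_one _
      · right; right; left; rw [hzw, mul_assoc, h.sq, mul_one]
      · right; left; exact hzww
      · left; rw [mul_assoc, ← mul_assoc w, ← hzw, hzww, h.sq]
    | inv x _ hx =>
      rcases hx with rfl | rfl | rfl | rfl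
      · left; exact inv_one
      · right; left; exact inv_eq_of_mul_eq_one_right h.sq
      · right; right; left; exact inv_eq_of_mul_eq_one_right h'.sq
      · right; right; right
        rw [mul_inv_rev, inv_eq_of_mul_eq_one_right h.sq, inv_eq_of_mul_eq_one_right h'.sq, hzw]
  intro u hu v hv hu1 hv1 huv
  have hA : a ∈ Q ⊔ Q.map (MulAut.conj g).toMonoidHom := Subgroup.mem_sup_left haQ
  have hB : b ∈ Q ⊔ Q.map (MulAut.conj g).toMonoidHom := Subgroup.mem_sup_right hbR
  have hab : ∀ x y : G, a * (x * y) * a⁻¹ = (a * x * a⁻¹) * (a * y * a⁻¹) := fun x y => by group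
  have hbb : ∀ x y : G, b * (x * y) * b⁻¹ = (b * x * b⁻¹) * (b * y * b⁻¹) := fun x y => by group
  have hc : ∀ s t x : G, s * t * x * (s * t)⁻¹ = s * (t * x * t⁻¹) * s⁻¹ := fun s t x => by group
  rcases hmem u hu with e | e | e | e <;> rcases hmem v hv with e' | e' | e' | e'
  all_goals first
    | exact absurd e hu1
    | exact absurd e' hv1
    | exact absurd (e.trans e'.symm) huv
    | skip
  · subst e e'; exact ⟨1, one_mem _, by group, by group⟩
  · subst e e'; exact ⟨a, hA, haz, haw⟩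
  · subst e e'
    exact ⟨a * b * a, mul_mem (mul_mem hA hB) hA,
      by rw [hc, haz, hc, hbz, hab, haz, haw, hzzw],
      by rw [hc, haw, hc, hbb, hbz, hbw, hzww, haz]⟩
  · subst e e'
    exact ⟨a * b, mul_mem hA hB, by rw [hc, hbz, hab, haz, haw, hzzw], by rw [hc, hbw, haw]⟩
  · subst e e'
    exact ⟨b * a, mul_mem hB hA, by rw [hc, haz, hbz], by rw [hc, haw, hbb, hbz, hbw, hzww]⟩
  · subst e e'; exact ⟨b, hB, hbz, hbw⟩

end SympCore

/-- A 2-group of symplectic type and exponent four. -/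
theorem sympCore_facts {F : Type*} [Group F] [Finite F] (hQ : Cfsg.IsOfSymplecticType F)
    (h4 : ∀ q : F, q ^ 4 = 1) {z : F} (hz : orderOf z = 2) (hzc : z ∈ Subgroup.center F) :
    (∀ a b : F, a * b * a⁻¹ * b⁻¹ ∈ Subgroup.zpowers z) ∧ (∀ a : F, a * a ∈ Subgroup.zpowers z) ∧
      ∀ y ∈ Subgroup.center F, y * y = 1 → y = 1 ∨ y = z := by
  haveI := Fact.mk Nat.prime_two
  have hcyc : IsCyclic (Subgroup.center F) := hQ.2 _ inferInstance inferInstance
  have hinv : ∀ y ∈ Subgroup.center F, y * y = 1 → y = 1 ∨ y = z := by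
    intro y hy hy2
    by_cases hy1 : y = 1
    · exact Or.inl hy1
    · exact Or.inr (Screen.eq_of_orderOf_eq_two_of_isCyclic hcyc hy hzc
        (orderOf_eq_prime (by rwa [pow_two]) hy1) hz)
  have hmem : ∀ y ∈ Subgroup.center F, y * y = 1 → y ∈ Subgroup.zpowers z := fun y hy hy2 => by
    rcases hinv y hy hy2 with rfl | rfl
    · exact one_mem _
    · exact Subgroup.mem_zpowers _
  obtain ⟨E, R, hER, htop, hE, hR⟩ := Transfer.SympType.main hQ.1 hQ.2
  have hRc : IsCyclic R := by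
    rcases hR with hc | ⟨-, h16, h⟩
    · exact hc
    exfalso
    have hle : ∀ x : R, orderOf x ≤ 4 := fun x =>
      Nat.le_of_dvd (by norm_num) (orderOf_dvd_of_pow_eq_one (Subtype.ext ((SubmonoidClass.coe_pow x 4).trans (h4 (x : F)))))
    rcases h with ⟨m, ⟨φ⟩⟩ | ⟨m, ⟨φ⟩⟩ | ⟨m, hm, -, x, -, hx, -, -⟩
    · have h1 := hle (φ.symm (DihedralGroup.r 1))
      rw [MulEquiv.orderOf_eq, DihedralGroup.orderOf_r_one] at h1
      rw [Nat.card_congr φ.toEquiv, DihedralGroup.nat_card] at h16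
      omega
    · have h1 := hle (φ.symm (QuaternionGroup.a 1))
      haveI : NeZero m := ⟨fun e => by
        subst e
        haveI : Finite (QuaternionGroup 0) := Finite.of_equiv _ φ.toEquiv
        haveI : Infinite (QuaternionGroup 0) := Infinite.of_injective (fun n : ℤ => QuaternionGroup.a n)
          (fun a b h => QuaternionGroup.a.inj h)
        exact not_finite (QuaternionGroup 0)⟩
      rw [MulEquiv.orderOf_eq, QuaternionGroup.orderOf_a_one] at h1
      rw [Nat.card_congr φ.toEquiv, Nat.card_eq_fintype_card, QuaternionGroup.card] at h16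
      omega
    · have h1 := hle x
      rw [hx] at h1
      have : 2 ^ 3 ≤ 2 ^ m := Nat.pow_le_pow_right two_pos hm
      omega
  obtain ⟨t, ht⟩ := (Subgroup.isCyclic_iff_exists_zpowers_eq_top R).1 hRc
  have hRR : ∀ r ∈ R, ∀ s ∈ R, r * s = s * r := by
    intro r hr s hs
    rw [← ht] at hr hs
    obtain ⟨i, rfl⟩ := hr
    obtain ⟨j, rfl⟩ := hs
    exact zpow_mul_comm t i j
  haveI hRn : R.Normal := ⟨fun r hr x => by
    have hle : E ⊔ R ≤ Subgroup.centralizer (R : Set F) := sup_le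
      (fun e he => Subgroup.mem_centralizer_iff.mpr fun s hs => (hER e he s hs).symm)
      (fun r hr => Subgroup.mem_centralizer_iff.mpr fun s hs => hRR s hs r hr)
    rw [← Subgroup.mem_centralizer_iff.mp (hle (htop ▸ Subgroup.mem_top x)) r hr, mul_inv_cancel_right]
    exact hr⟩
  have hRcen : ∀ r ∈ R, r ∈ Subgroup.center F := fun r hr => Subgroup.mem_center_iff.mpr fun x => by
    have hle : E ⊔ R ≤ Subgroup.centralizer ({r} : Set F) := sup_le
      (fun e he => Subgroup.mem_centralizer_singleton_iff.mpr (hER e he r hr))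
      (fun s hs => Subgroup.mem_centralizer_singleton_iff.mpr (hRR s hs r hr))
    exact Subgroup.mem_centralizer_singleton_iff.mp (hle (htop ▸ Subgroup.mem_top x))
  have hcenE : ∀ y : F, y ∈ E → (∀ e ∈ E, e * y = y * e) → y ∈ Subgroup.center F := fun y hy hc =>
    Subgroup.mem_center_iff.mpr fun x => by
      have hle : E ⊔ R ≤ Subgroup.centralizer ({y} : Set F) := sup_le
        (fun e he => Subgroup.mem_centralizer_singleton_iff.mpr (hc e he))
        (fun s hs => Subgroup.mem_centralizer_singleton_iff.mpr (Subgroup.mem_center_iff.mp (hRcen s hs) y).symm)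
      exact Subgroup.mem_centralizer_singleton_iff.mp (hle (htop ▸ Subgroup.mem_top x))
  have hEz : ∀ y : E, y ∈ Subgroup.center E → (Cfsg.IsExtraspecial 2 ↥E) → (y : F) ∈ Subgroup.zpowers z := by
    intro y hy hEx
    refine hmem _ (hcenE _ y.2 fun e he => congrArg Subtype.val (Subgroup.mem_center_iff.mp hy ⟨e, he⟩)) ?_
    have : (⟨y, hy⟩ : Subgroup.center E) ^ 2 = 1 := by rw [← hEx.2]; exact pow_card_eq_one'
    rw [← pow_two]
    exact congrArg (fun u : Subgroup.center E => ((u : E) : F)) this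
  have hsplit : ∀ x : F, ∃ e ∈ E, ∃ r ∈ R, e * r = x := fun x =>
    Subgroup.mem_sup_of_normal_right.mp (htop ▸ Subgroup.mem_top x)
  refine ⟨fun x y => ?_, fun x => ?_, hinv⟩
  · obtain ⟨e, he, r, hr, rfl⟩ := hsplit x
    obtain ⟨e', he', r', hr', rfl⟩ := hsplit y
    have h1 : e * r * (e' * r') * (e * r)⁻¹ * (e' * r')⁻¹ = e * e' * e⁻¹ * e'⁻¹ := by
      have c1 : ∀ u : F, u * r = r * u := Subgroup.mem_center_iff.mp (hRcen r hr)
      have c2 : ∀ u : F, u * r' = r' * u := Subgroup.mem_center_iff.mp (hRcen r' hr')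
      calc e * r * (e' * r') * (e * r)⁻¹ * (e' * r')⁻¹
          = e * (r * e') * r' * r⁻¹ * e⁻¹ * r'⁻¹ * e'⁻¹ := by group
        _ = e * e' * (r * r') * r⁻¹ * e⁻¹ * r'⁻¹ * e'⁻¹ := by rw [← c1 e']; group
        _ = e * e' * (r' * e⁻¹) * r'⁻¹ * e'⁻¹ := by rw [hRR r hr r' hr']; group
        _ = e * e' * e⁻¹ * e'⁻¹ := by rw [← c2 e⁻¹]; group
    rw [h1]
    rcases hE with rfl | hEx
    · rw [Subgroup.mem_bot.mp he, Subgroup.mem_bot.mp he']; simp
    · exact hEz (⟨e, he⟩ * ⟨e', he'⟩ * (⟨e, he⟩ : E)⁻¹ * (⟨e', he'⟩ : E)⁻¹) (by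
        rw [← hEx.1.2.2]
        exact Subgroup.commutator_mem_commutator (Subgroup.mem_top _) (Subgroup.mem_top _)) hEx
  · obtain ⟨e, he, r, hr, rfl⟩ := hsplit x
    have h1 : e * r * (e * r) = (e * e) * (r * r) := by
      rw [show e * r * (e * r) = e * (r * e) * r by group, ← hER e he r hr]; group
    rw [h1]
    refine mul_mem ?_ (hmem _ (mul_mem (hRcen r hr) (hRcen r hr)) (by
      have := h4 r
      rw [show (4 : ℕ) = 2 + 2 from rfl, pow_add, pow_two] at this
      exact this))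
    rcases hE with rfl | hEx
    · rw [Subgroup.mem_bot.mp he]; simp
    · have := hEz ((⟨e, he⟩ : E) ^ 2) (FGS3.IsExtraspecial_pow_mem hEx _) hEx
      rw [pow_two] at this
      exact this

end Cfsg.Agent.TwoGroups
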