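/-
An involution acting on an extraspecial 2-group.
-/
import Cfsg.Agent.LocalEven.ExtraspecialCount

set_option linter.unusedSectionVars false
set_option linter.style.haveILetI false

namespace Cfsg.Agent.TwoGroups

open scoped commutatorElement

variable {G : Type*} [Group G] [Finite G]

/-- `[Q, α]` is the centre of `Q₀ = {q | [q, α] ∈ ⟨z⟩}`. -/
theorem extraspecial_involution_commutators {Q : Subgroup G} (hE : Cfsg.IsExtraspecial 2 ↥Q) {z α : G}
    (hz : orderOf z = 2) (hzQ : z ∈ Q) (hzc : ∀ q ∈ Q, q * z = z * q) (hα2 : α * α = 1)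
    (hαz : α * z = z * α) (hαQ : ∀ q ∈ Q, α * q * α ∈ Q) (hαne : ∃ q ∈ Q, α * q ≠ q * α)
    (Q₀ : Subgroup G) (hQ₀ : ∀ q : G, q ∈ Q₀ ↔ (q ∈ Q ∧ α * q * α⁻¹ * q⁻¹ ∈ Subgroup.zpowers z)) :
    Subgroup.closure ((fun q : G => α * q * α⁻¹ * q⁻¹) '' (Q : Set G)) =
      (Subgroup.center ↥Q₀).map Q₀.subtype ∧
    (¬ Q₀ ≤ (Q ⊓ Subgroup.centralizer ({α} : Set G)) ⊔ Subgroup.zpowers z →
      ∃ q ∈ Q, q * α * q⁻¹ = α * z) := by
  haveI := Fact.mk Nat.prime_two
  have hαi : α⁻¹ = α := inv_eq_of_mul_eq_one_right hα2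
  have hz1 : z ≠ 1 := fun h => by rw [h, orderOf_one] at hz; omega
  have hz2 : z * z = 1 := by rw [← pow_two, ← hz, pow_orderOf_eq_one]
  have hZcases : ∀ e ∈ Subgroup.zpowers z, e = 1 ∨ e = z := by
    rintro _ ⟨i, rfl⟩
    rcases Int.even_or_odd' i with ⟨j, rfl | rfl⟩
    · left; show z ^ (2 * j) = 1; rw [zpow_mul, show z ^ (2 : ℤ) = 1 by rw [zpow_two, hz2], one_zpow]
    · right; show z ^ (2 * j + 1) = z
      rw [zpow_add, zpow_mul, show z ^ (2 : ℤ) = 1 by rw [zpow_two, hz2], one_zpow, one_mul, zpow_one]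
  have hcen : Subgroup.center ↥Q = Subgroup.zpowers (⟨z, hzQ⟩ : ↥Q) := by
    refine (Subgroup.eq_of_le_of_card_ge (Subgroup.zpowers_le.mpr ?_) ?_).symm
    · exact Subgroup.mem_center_iff.mpr fun q => Subtype.ext (hzc q q.2)
    · rw [hE.2, Nat.card_zpowers, Subgroup.orderOf_mk, hz]
  have hcenG : ∀ y : G, y ∈ Q → (∀ q ∈ Q, q * y = y * q) → y ∈ Subgroup.zpowers z := by
    intro y hy h
    have hm : (⟨y, hy⟩ : ↥Q) ∈ Subgroup.center ↥Q := Subgroup.mem_center_iff.mpr fun q => Subtype.ext (h q q.2)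
    rw [hcen] at hm
    obtain ⟨i, hi⟩ := hm
    exact ⟨i, congrArg Subtype.val hi⟩
  have hcm : ∀ a ∈ Q, ∀ b ∈ Q, a * b * a⁻¹ * b⁻¹ ∈ Subgroup.zpowers z := by
    intro a ha b hb
    have hm : (⁅(⟨a, ha⟩ : ↥Q), ⟨b, hb⟩⁆) ∈ Subgroup.center ↥Q := by
      rw [← hE.1.2.2]
      exact Subgroup.commutator_mem_commutator (Subgroup.mem_top _) (Subgroup.mem_top _)
    rw [hcen] at hm
    obtain ⟨i, hi⟩ := hm
    exact ⟨i, congrArg Subtype.val hi⟩
  have hsq : ∀ a ∈ Q, a ^ 2 ∈ Subgroup.zpowers z := by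
    intro a ha
    have hm := FGS3.IsExtraspecial_pow_mem hE (⟨a, ha⟩ : ↥Q)
    rw [hcen] at hm
    obtain ⟨i, hi⟩ := hm
    exact ⟨i, congrArg Subtype.val hi⟩
  have hzcomm : ∀ e ∈ Subgroup.zpowers z, ∀ q ∈ Q, Commute e q ∧ Commute e α ∧ e * e = 1 := by
    intro e he q hq
    rcases hZcases e he with rfl | rfl
    · exact ⟨Commute.one_left _, Commute.one_left _, one_mul 1⟩
    · exact ⟨(hzc q hq).symm, hαz.symm, hz2⟩
  set cf : G → G := fun q => α * q * α⁻¹ * q⁻¹ with hcf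
  have hcf' : ∀ q, cf q = α * q * α * q⁻¹ := fun q => by simp only [hcf, hαi]
  have hcQ : ∀ q ∈ Q, cf q ∈ Q := fun q hq => hcf' q ▸ mul_mem (hαQ q hq) (inv_mem hq)
  set I := Subgroup.closure (cf '' (Q : Set G)) with hI
  have hgen : ∀ q ∈ Q, cf q ∈ I := fun q hq => Subgroup.subset_closure ⟨q, hq, rfl⟩
  have hIQ : I ≤ Q := (Subgroup.closure_le _).mpr (by rintro _ ⟨q, hq, rfl⟩; exact hcQ q hq)
  -- `z ∈ I`
  have hzI : z ∈ I := by
    by_cases hall : ∀ q ∈ Q, cf q ∈ Subgroup.zpowers z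
    · obtain ⟨q, hq, hne⟩ := hαne
      rcases hZcases _ (hall q hq) with h | h
      · exfalso
        apply hne
        have h' : α * q * α * q⁻¹ = 1 := (hcf' q) ▸ h
        rw [mul_inv_eq_one] at h'
        calc α * q = α * q * (α * α) := by rw [hα2, mul_one]
          _ = (α * q * α) * α := by group
          _ = q * α := by rw [h']
      · exact h ▸ hgen q hq
    · push Not at hall
      obtain ⟨q₂, hq₂, hc₂⟩ := hall
      obtain ⟨q₁, hq₁, hne⟩ : ∃ q₁ ∈ Q, q₁ * cf q₂ ≠ cf q₂ * q₁ := by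
        by_contra hcon
        push Not at hcon
        exact hc₂ (hcenG _ (hcQ q₂ hq₂) hcon)
      have hmul : cf (q₁ * q₂) = cf q₁ * (q₁ * cf q₂ * q₁⁻¹) := by simp only [hcf]; group
      rcases hZcases _ (hcm q₁ hq₁ _ (hcQ q₂ hq₂)) with h | h
      · exact absurd (mul_inv_eq_iff_eq_mul.mp (mul_inv_eq_one.mp h)) hne
      · have e : z = q₁ * cf q₂ * q₁⁻¹ * (cf q₂)⁻¹ := h.symm
        rw [e]
        have h1 : q₁ * cf q₂ * q₁⁻¹ ∈ I := by
          have := mul_mem (inv_mem (hgen q₁ hq₁)) (hgen _ (mul_mem hq₁ hq₂))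
          rwa [hmul, inv_mul_cancel_left] at this
        exact mul_mem h1 (inv_mem (hgen q₂ hq₂))
  have hzpI : Subgroup.zpowers z ≤ I := Subgroup.zpowers_le.mpr hzI
  -- generators centralize `Q₀`
  have hgenQ₀ : ∀ q ∈ Q, ∀ r ∈ Q₀, r * cf q = cf q * r := by
    intro q hq r hr
    obtain ⟨hrQ, hre⟩ := (hQ₀ r).mp hr
    rw [hαi] at hre
    set e := α * r * α * r⁻¹ with he
    obtain ⟨-, heα, hee⟩ := hzcomm e hre r hrQ
    set e' := q * r * q⁻¹ * r⁻¹ with he'
    obtain ⟨-, he'α, -⟩ := hzcomm e' (hcm q hq r hrQ) r hrQ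
    have h1 : α * q * α * r * (α * q * α)⁻¹ = q * r * q⁻¹ := by
      have eqr : q * r * q⁻¹ = e' * r := by rw [he']; group
      have ear : α * r * α = e * r := by rw [he]; group
      calc α * q * α * r * (α * q * α)⁻¹ = α * q * α * r * (α⁻¹ * q⁻¹ * α⁻¹) := by group
        _ = α * q * (α * r * α) * q⁻¹ * α := by rw [hαi]; group
        _ = α * (q * e) * r * q⁻¹ * α := by rw [ear]; group
        _ = α * (e * q) * r * q⁻¹ * α := by rw [((hzcomm e hre q hq).1).eq]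
        _ = (α * e) * (q * r * q⁻¹) * α := by group
        _ = (e * α) * (e' * r) * α := by rw [heα.eq, eqr]
        _ = e * (α * e') * r * α := by group
        _ = e * (e' * α) * r * α := by rw [he'α.eq]
        _ = e * e' * (α * r * α) := by group
        _ = e * (e' * e) * r := by rw [ear]; group
        _ = e * (e * e') * r := by
          rw [(hzcomm e' (hcm q hq r hrQ) e (by
            rcases hZcases e hre with h | h <;> rw [h]
            exacts [one_mem _, hzQ])).1.eq]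
        _ = (e * e) * (e' * r) := by group
        _ = q * r * q⁻¹ := by rw [hee, one_mul, eqr]
    rw [hcf']
    symm
    calc α * q * α * q⁻¹ * r = (α * q * α) * (q⁻¹ * r * q) * (α * q * α)⁻¹ * (α * q * α * q⁻¹) := by group
      _ = r * (α * q * α * q⁻¹) := by
        have hd : q⁻¹ * r * q = (q⁻¹ * r * q * r⁻¹) * r := by group
        have hd' : q⁻¹ * r * q * r⁻¹ ∈ Subgroup.zpowers z := by
          have := hcm q⁻¹ (inv_mem hq) r hrQ
          rwa [inv_inv] at this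
        obtain ⟨hd1, -, -⟩ := hzcomm _ hd' (α * q * α) (hαQ q hq)
        obtain ⟨hd2, -, -⟩ := hzcomm _ hd' q hq
        set d := q⁻¹ * r * q * r⁻¹
        congr 1
        calc α * q * α * (q⁻¹ * r * q) * (α * q * α)⁻¹ = (α * q * α * d) * r * (α * q * α)⁻¹ := by rw [hd]; group
          _ = d * (α * q * α * r * (α * q * α)⁻¹) := by rw [← hd1.eq]; group
          _ = d * q * r * q⁻¹ := by rw [h1]; group
          _ = q * d * r * q⁻¹ := by rw [hd2.eq]
          _ = q * (q⁻¹ * r * q) * q⁻¹ := by rw [hd]; group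
          _ = r := by group
  have hgenmem : ∀ q ∈ Q, cf q ∈ Q₀ := by
    intro q hq
    refine (hQ₀ _).mpr ⟨hcQ q hq, ?_⟩
    have e1 : α * cf q * α⁻¹ = (cf q)⁻¹ := by
      rw [hcf' q]
      simp only [mul_inv_rev, inv_inv, hαi]
      calc α * (α * q * α * q⁻¹) * α = (α * α) * (q * (α * (q⁻¹ * α))) := by group
        _ = q * (α * (q⁻¹ * α)) := by rw [hα2, one_mul]
    have : α * cf q * α⁻¹ * (cf q)⁻¹ = ((cf q) ^ 2)⁻¹ := by rw [e1, pow_two]; exact (mul_inv_rev _ _).symm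
    rw [this]
    exact inv_mem (hsq _ (hcQ q hq))
  have hcentQ₀ : ∀ r ∈ Q, (∀ y ∈ I, y * r = r * y) → r ∈ Q₀ := by
    intro r hr hcom
    refine (hQ₀ r).mpr ⟨hr, hcenG _ (hcQ r hr) fun q hq => ?_⟩
    have h1 : α * r * α * q * (α * r * α)⁻¹ = r * q * r⁻¹ := by
      set c := cf q with hc
      have eaq : α * q * α = c * q := by rw [hc, hcf']; group
      set e := r * q * r⁻¹ * q⁻¹ with he
      have he' : e ∈ Subgroup.zpowers z := hcm r hr q hq
      obtain ⟨-, heα, -⟩ := hzcomm e he' r hr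
      obtain ⟨hec, -, -⟩ := hzcomm e he' c (hcQ q hq)
      calc α * r * α * q * (α * r * α)⁻¹ = α * r * α * q * (α⁻¹ * r⁻¹ * α⁻¹) := by group
        _ = α * r * (α * q * α) * r⁻¹ * α := by rw [hαi]; group
        _ = α * (r * c) * q * r⁻¹ * α := by rw [eaq]; group
        _ = α * (c * r) * q * r⁻¹ * α := by rw [hcom c (hgen q hq)]
        _ = α * (c * e) * q * α := by rw [he]; group
        _ = (α * e) * (c * q) * α := by rw [← hec.eq]; group
        _ = e * α * (α * q * α) * α := by rw [heα.eq, eaq]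
        _ = e * (α * α) * q * (α * α) := by group
        _ = r * q * r⁻¹ := by rw [hα2, he]; group
    symm
    rw [hαi]
    have hd : r⁻¹ * q * r * q⁻¹ ∈ Subgroup.zpowers z := by
      have := hcm r⁻¹ (inv_mem hr) q hq
      rwa [inv_inv] at this
    obtain ⟨hd1, -, -⟩ := hzcomm _ hd (α * r * α) (hαQ r hr)
    obtain ⟨hd2, -, -⟩ := hzcomm _ hd r hr
    set d := r⁻¹ * q * r * q⁻¹ with hd'
    calc α * r * α * r⁻¹ * q = (α * r * α * d) * q * (α * r * α)⁻¹ * (α * r * α * r⁻¹) := by rw [hd']; group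
      _ = (d * (α * r * α * q * (α * r * α)⁻¹)) * (α * r * α * r⁻¹) := by rw [← hd1.eq]; group
      _ = (d * r * q * r⁻¹) * (α * r * α * r⁻¹) := by rw [h1]; group
      _ = (r * d * q * r⁻¹) * (α * r * α * r⁻¹) := by rw [hd2.eq]
      _ = q * (α * r * α * r⁻¹) := by rw [hd']; group
  refine ⟨le_antisymm ?_ ?_, fun hnle => ?_⟩
  · rw [Subgroup.closure_le]
    rintro _ ⟨q, hq, rfl⟩
    exact ⟨⟨cf q, hgenmem q hq⟩, Subgroup.mem_center_iff.mpr fun r => Subtype.ext (hgenQ₀ q hq r r.2), rfl⟩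
  · rintro _ ⟨⟨x, hx⟩, hxc, rfl⟩
    set B := I.subgroupOf Q with hB
    have hZB : Subgroup.center ↥Q ≤ B := by
      rw [hcen, Subgroup.zpowers_le]; exact hzI
    set C := Subgroup.centralizer (B : Set ↥Q) with hC
    have h1 := LocalEven.card_centralizer_mul_card hE hZB
    have h2 := LocalEven.card_centralizer_mul_card hE (Subgroup.center_le_centralizer (B : Set ↥Q))
    have hBC : B = Subgroup.centralizer (C : Set ↥Q) := by
      refine Subgroup.eq_of_le_of_card_ge (Subgroup.le_centralizer_iff.mp le_rfl) (le_of_eq ?_)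
      exact Nat.eq_of_mul_eq_mul_left (Nat.card_pos (α := ↥C))
        ((mul_comm _ _).trans (h2.trans h1.symm))
    have hxQ : x ∈ Q := ((hQ₀ x).mp hx).1
    show x ∈ I
    have : (⟨x, hxQ⟩ : ↥Q) ∈ B := by
      rw [hBC, Subgroup.mem_centralizer_iff]
      intro r hr
      have hrQ₀ : (r : G) ∈ Q₀ := hcentQ₀ r r.2 fun y hy =>
        congrArg Subtype.val (Subgroup.mem_centralizer_iff.mp hr ⟨y, hIQ hy⟩ hy)
      exact Subtype.ext (congrArg Subtype.val (Subgroup.mem_center_iff.mp hxc ⟨r, hrQ₀⟩) : (r : G) * x = x * r)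
    exact this
  · obtain ⟨q, hq, hqn⟩ := SetLike.not_le_iff_exists.mp hnle
    obtain ⟨hqQ, hqz⟩ := (hQ₀ q).mp hq
    refine ⟨q, hqQ, ?_⟩
    rcases hZcases _ hqz with h | h
    · refine absurd (Subgroup.mem_sup_left (show q ∈ Q ⊓ Subgroup.centralizer ({α} : Set G) from
        Subgroup.mem_inf.mpr ⟨hqQ, Subgroup.mem_centralizer_singleton_iff.mpr ?_⟩)) hqn
      exact (mul_inv_eq_iff_eq_mul.mp (mul_inv_eq_one.mp h)).symm
    · rw [hαi] at h
      calc q * α * q⁻¹ = (α * α) * (q * α * q⁻¹) := by rw [hα2, one_mul]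
        _ = α * (α * q * α * q⁻¹) := by group
        _ = α * z := by rw [h]

end Cfsg.Agent.TwoGroups
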